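import Cfsg.Agent.BG.S3Gen
import Mathlib.GroupTheory.Schreier
import Mathlib.GroupTheory.Transfer
import Mathlib.GroupTheory.Rank

/-! Coprime action of non-cyclic abelian groups: index bounds from fixed-point subgroups, and Dicman's lemma. -/

set_option autoImplicit false

namespace Cfsg.Agent.GS
open Subgroup Cfsg.Agent.BG
open scoped commutatorElement

variable {G : Type*} [Group G] [Finite G] {A B H K R : Subgroup G}

theorem nil_index (hB : IsMulCommutative B) (hB' : ¬ IsCyclic B) (hR : Group.IsNilpotent R) (hn : B ≤ N[R])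
    (hc : (#R).Coprime #B) (s : Finset G) (hs : ∀ a, a ∈ s ↔ a ∈ B ∧ a ≠ 1) (U : Subgroup G) :
    U ≤ R → B ≤ N[U] → U.relIndex R ∣ ∏ a ∈ s, U.relIndex (R ⊓ C1[a]) := by
  induction U using WellFoundedGT.induction with
  | ind U ih =>
    intro hU hnU
    rcases hU.lt_or_eq with hlt | rfl
    swap
    · rw [relIndex_self]; exact one_dvd _
    have h1 := nilpotent_proper_norm hR hlt
    have h2 : B ≤ N[R ⊓ N[U]] := normsI hn (norms_norm hnU)
    obtain ⟨a, ha, ha1, h3⟩ : ∃ a ∈ B, a ≠ 1 ∧ ¬ R ⊓ N[U] ⊓ C1[a] ≤ U := by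
      by_contra h
      push Not at h
      exact h1.not_ge (coprime_abelian_gen_cent1 hB hB' h2 (hc.coprime_dvd_left (card_dvd_of_le inf_le_left)) h)
    set V := U ⊔ (R ⊓ N[U] ⊓ C1[a])
    have hUV : U < V := left_lt_sup.2 h3
    have hVN : V ≤ R ⊓ N[U] := sup_le h1.le inf_le_left
    have h4 := ih V hUV (hVN.trans inf_le_left)
      (normsY hnU (normsI h2 (norms_cent1 (le_cent1_iff.2 (sub_abelian_cent hB le_rfl ha)))))
    have h5 : ∀ b, U.relIndex (R ⊓ C1[b]) = U.relIndex (V ⊓ (R ⊓ C1[b])) * V.relIndex (R ⊓ C1[b]) := fun b => by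
      rw [relIndex_inf_mul_relIndex, inf_eq_left.2 hUV.le]
    have h6 : U.relIndex V = U.relIndex (V ⊓ (R ⊓ C1[a])) := by
      rw [relIndex_sup_norml (inf_le_left.trans inf_le_right)]
      congr 1
      exact le_antisymm (le_inf le_sup_right (inf_le_inf_right _ inf_le_left))
        (le_inf (inf_le_left.trans hVN) (inf_le_right.trans inf_le_right))
    rw [Finset.prod_congr rfl fun b _ => h5 b, Finset.prod_mul_distrib,
      ← relIndex_mul_relIndex U V R hUV.le (hVN.trans inf_le_left), h6]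
    exact mul_dvd_mul (Finset.dvd_prod_of_mem _ ((hs a).2 ⟨ha, ha1⟩)) h4

theorem index_dvd (hB : IsMulCommutative B) (hB' : ¬ IsCyclic B) (hn : B ≤ N[K]) (hc : (#K).Coprime #B)
    (hH : H ≤ K) (hnH : B ≤ N[H]) {e : ℕ} (h : ∀ a ∈ B, a ≠ 1 → H.relIndex (K ⊓ C1[a]) ∣ e) :
    H.relIndex K ∣ e ^ #B := by
  classical
  haveI := Fintype.ofFinite G
  refine (Nat.dvd_iff_prime_pow_dvd_dvd _ _).2 fun r k hr hk => ?_
  haveI : Fact r.Prime := ⟨hr⟩
  have hs : Group.IsSolvable B := abelian_sol hB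
  have hcH := hc.coprime_dvd_left (card_dvd_of_le hH)
  obtain ⟨R0, hR0, n0⟩ := coprime_Sylow_exists r hnH hcH (Or.inl hs)
  obtain ⟨R, hR, n1, l⟩ := coprime_Sylow_subset hn hc (Or.inl hs) (hR0.le.trans hH) hR0.pg n0
  have h1 := nil_index hB hB' (pgroup_nil hR.pg) n1 (hc.coprime_dvd_left (card_dvd_of_le hR.le))
    (Finset.univ.filter fun a => a ∈ B ∧ a ≠ 1) (by simp) R0 l n0
  have h2 : r ^ k ∣ R0.relIndex R := by
    refine (Nat.Coprime.pow_left k ((Nat.Prime.coprime_iff_not_dvd hr).2 hR.not_dvd)).dvd_of_dvd_mul_right ?_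
    rw [relIndex_mul_relIndex _ _ _ l hR.le, ← relIndex_mul_relIndex _ _ _ hR0.le hH]
    exact hk.mul_left _
  refine h2.trans (h1.trans ((Finset.prod_dvd_prod_of_dvd _ (fun _ => e) fun a ha => ?_).trans ?_))
  · obtain ⟨ha, ha1⟩ := (Finset.mem_filter.1 ha).2
    have hz : zpowers a ≤ B := zpowers_le.2 ha
    have e0 : C[zpowers a] = C1[a] := by rw [zpowers_eq_closure, centralizer_closure]
    have h3 := coprime_Sylow_cent (hz.trans hnH) (hcH.coprime_dvd_right (card_dvd_of_le hz))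
      (Or.inl (by infer_instance)) hR0 (hz.trans n0)
    rw [e0] at h3
    obtain ⟨j, hj⟩ : ∃ j, R0.relIndex (R ⊓ C1[a]) = r ^ j := by
      obtain ⟨i, hi⟩ := IsPGroup.iff_card.1 (hR.pg.to_inf_left (K := C1[a]))
      obtain ⟨j, -, hj⟩ := (Nat.dvd_prime_pow hr).1 (hi ▸ relIndex_dvd_card R0 (R ⊓ C1[a]))
      exact ⟨j, hj⟩
    refine Dvd.dvd.trans ?_ (h a ha ha1)
    have e1 : (R0 ⊓ C1[a]).relIndex (H ⊓ C1[a]) * H.relIndex (K ⊓ C1[a]) =
        R0.relIndex (R ⊓ C1[a]) * (R ⊓ C1[a]).relIndex (K ⊓ C1[a]) := by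
      have e2 : H.relIndex (K ⊓ C1[a]) = (H ⊓ C1[a]).relIndex (K ⊓ C1[a]) := by
        rw [← inf_relIndex_right, ← inf_assoc, inf_eq_left.2 hH]
      have e3 : R0.relIndex (R ⊓ C1[a]) = (R0 ⊓ C1[a]).relIndex (R ⊓ C1[a]) := by
        rw [← inf_relIndex_right, ← inf_assoc, inf_eq_left.2 l]
      rw [e2, e3, relIndex_mul_relIndex _ _ _ (inf_le_inf_right _ hR0.le) (inf_le_inf_right _ hH),
        relIndex_mul_relIndex _ _ _ (inf_le_inf_right _ l) (inf_le_inf_right _ hR.le)]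
    rw [hj] at e1 ⊢
    exact (Nat.Coprime.pow_left j ((Nat.Prime.coprime_iff_not_dvd hr).2 h3.not_dvd)).dvd_of_dvd_mul_left
      ⟨_, e1⟩
  · rw [Finset.prod_const]
    refine pow_dvd_pow _ ?_
    rw [Nat.card_eq_fintype_card, Fintype.card_subtype]
    exact Finset.card_le_card fun a ha => by simpa using (Finset.mem_filter.1 ha).2.1

omit [Finite G] in
theorem ncard_conj (S : Subgroup G) (x : G) : {y | ∃ g ∈ S, g * x * g⁻¹ = y}.ncard = C1[x].relIndex S := by
  letI : MulAction S G := MulAction.compHom G (MulAut.conj.comp S.subtype)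
  have h := MulAction.index_stabilizer S x
  have e1 : MulAction.stabilizer S x = C1[x].subgroupOf S := by
    ext g
    rw [MulAction.mem_stabilizer_iff, mem_subgroupOf, mem_cent1, ← mul_inv_eq_iff_eq_mul]
    rfl
  have e2 : MulAction.orbit S x = {y | ∃ g ∈ S, g * x * g⁻¹ = y} := by
    ext y
    exact ⟨fun ⟨g, hg⟩ => ⟨g, g.2, hg⟩, fun ⟨g, hg, e⟩ => ⟨⟨g, hg⟩, e⟩⟩
  rw [e1, e2] at h
  exact h.symm

theorem relIndex_le_der {S : Subgroup G} {x : G} (hx : x ∈ S) : C1[x].relIndex S ≤ #⁅S, S⁆ := by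
  rw [← ncard_conj, ← Set.ncard_image_of_injective _ (mul_left_injective x⁻¹)]
  refine (Set.ncard_le_ncard (t := (⁅S, S⁆ : Subgroup G)) ?_).trans (Nat.card_coe_set_eq _).ge
  rintro _ ⟨_, ⟨g, hg, rfl⟩, rfl⟩
  exact commutator_mem_commutator hg hx

open scoped IsMulCommutative in
theorem dicman {Y : Set G} {y e : ℕ} (hy : Y.ncard ≤ y) (he : 0 < e) (hY : ∀ a ∈ Y, a ^ e = 1)
    (hc : ∀ g ∈ closure Y, ∀ a ∈ Y, g * a * g⁻¹ ∈ Y) :
    #(closure Y) ≤ (y.factorial * e) ^ (y.factorial * y) * y.factorial := by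
  set N := closure Y
  letI : MulAction N Y :=
    { smul := fun g a => ⟨g * a * (g : G)⁻¹, hc g g.2 a a.2⟩
      one_smul := fun a => Subtype.ext (by change ((1 : N) : G) * a * ((1 : N) : G)⁻¹ = a; simp)
      mul_smul := fun g h a => Subtype.ext (by
        change ((g * h : N) : G) * a * ((g * h : N) : G)⁻¹ = g * (h * a * (h : G)⁻¹) * (g : G)⁻¹
        simp [mul_assoc]) }
  have h1 : (MulAction.toPermHom N Y).ker ≤ center N := fun g hg => by
    have : N ≤ C1[(g : G)] := (closure_le _).2 fun a ha => by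
      have := congrArg (fun σ : Equiv.Perm Y => (σ ⟨a, ha⟩ : G)) (MonoidHom.mem_ker.1 hg)
      exact mem_cent1.2 (mul_inv_eq_iff_eq_mul.1 this).symm
    exact mem_center_iff.2 fun h => Subtype.ext (mem_cent1.1 (this h.2))
  have h2 : (center N).index ≤ y.factorial := by
    refine (Nat.le_of_dvd (Nat.pos_of_ne_zero index_ne_zero_of_finite) (index_dvd_of_le h1)).trans ?_
    rw [index_ker]
    refine (Finite.card_subtype_le _).trans ?_
    rw [Nat.card_perm, Nat.card_coe_set_eq]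
    exact Nat.factorial_le hy
  have h3 : ∀ g : N, g ^ ((center N).index * e) = 1 := fun g => by
    have : N ≤ (((powMonoidHom e : center N →* center N).comp (MonoidHom.transferCenterPow N)).ker).map N.subtype :=
      (closure_le _).2 fun a ha => ⟨⟨a, subset_closure ha⟩, by
        refine MonoidHom.mem_ker.2 (Subtype.ext (Subtype.ext ?_))
        simp only [MonoidHom.comp_apply, powMonoidHom_apply, SubmonoidClass.coe_pow,
          MonoidHom.transferCenterPow_apply, OneMemClass.coe_one]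
        rw [← pow_mul, mul_comm, pow_mul, hY a ha, one_pow], rfl⟩
    obtain ⟨g', hg', e1⟩ := this g.2
    obtain rfl : g' = g := Subtype.ext e1
    have := congrArg Subtype.val (MonoidHom.mem_ker.1 hg')
    simpa [MonoidHom.transferCenterPow_apply, pow_mul] using this
  have h4 := card_dvd_exponent_pow_rank' (center N) (n := (center N).index * e) fun g => Subtype.ext (h3 g)
  have h5 : Group.rank (center N) ≤ y.factorial * y :=
    (rank_le_index_mul_rank (center N)).trans (Nat.mul_le_mul h2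
      ((rank_closure_finite_le_nat_card Y).trans (by rwa [Nat.card_coe_set_eq])))
  have h0 : 0 < (center N).index := Nat.pos_of_ne_zero index_ne_zero_of_finite
  rw [← (center N).card_mul_index]
  refine Nat.mul_le_mul ((Nat.le_of_dvd (by positivity) h4).trans ?_) h2
  exact (Nat.pow_le_pow_left (Nat.mul_le_mul_right _ h2) _).trans
    (Nat.pow_le_pow_right (Nat.mul_pos (Nat.factorial_pos _) he) h5)

theorem der_bound {q m : ℕ} [hq : Fact q.Prime] (hA : Abelem q A) (h3 : #A = q ^ 3) (hn : A ≤ N[K])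
    (hc : (#K).Coprime #A) (h : ∀ a ∈ A, a ≠ 1 → #⁅K ⊓ C1[a], K ⊓ C1[a]⁆ ≤ m) (y : ℕ)
    (hy : y = q ^ 3 * (m * (m.factorial ^ q ^ 3 * m.factorial ^ q ^ 3))) :
    #⁅K, K⁆ ≤ (y.factorial * m.factorial) ^ (y.factorial * y) * y.factorial := by
  classical
  have hq1 := hq.out.one_lt
  have hB2 : ∀ B ≤ A, B.relIndex A ∣ q → q ^ 2 ≤ #B := fun B hB hi => by
    have e1 := card_mul_relIndex hB
    have e2 := Nat.le_of_dvd hq.out.pos hi
    refine Nat.le_of_mul_le_mul_right ?_ hq.out.pos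
    rw [← pow_succ, ← h3, ← e1]
    exact Nat.mul_le_mul_left _ e2
  have hL : ∀ B ≤ A, B.relIndex A ∣ q → ∀ x ∈ K ⊓ C[B], C1[x].relIndex K ≤ m.factorial ^ q ^ 3 := fun B hB hi x hx => by
    have e1 : ¬ IsCyclic B := fun hcy => by
      have := (hB2 B hB hi).trans (Nat.le_of_dvd hq.out.pos (cyclic_abelem_card_dvd (abelemS hB hA) hcy))
      nlinarith
    have e2 := index_dvd (H := C1[x] ⊓ K) (e := m.factorial) (abelemS hB hA).abelian e1 (hB.trans hn)
      (hc.coprime_dvd_right (card_dvd_of_le hB)) inf_le_right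
      (normsI (norms_cent1 (le_cent1_iff.2 hx.2)) (hB.trans hn)) fun a ha ha1 => by
        rw [← inf_relIndex_right, inf_assoc, ← inf_assoc K, inf_idem, inf_relIndex_right]
        exact Nat.dvd_factorial (relIndex_pos _ _)
          ((relIndex_le_der (mem_inf.2 ⟨hx.1, cent_le_cent1 ha hx.2⟩)).trans (h a (hB ha) ha1))
    rw [inf_relIndex_right] at e2
    exact (Nat.le_of_dvd (by positivity) e2).trans (Nat.pow_le_pow_right (Nat.factorial_pos _)
      (h3 ▸ Nat.le_of_dvd Nat.card_pos (card_dvd_of_le hB)))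
  set L := m.factorial ^ q ^ 3 * m.factorial ^ q ^ 3
  let Y0 : Set G := {c | (∃ a ∈ A, a ≠ 1 ∧ c ∈ ⁅K ⊓ C1[a], K ⊓ C1[a]⁆) ∧ C1[c].relIndex K ≤ L}
  let Y : Set G := ⋃ c ∈ Y0, {y | ∃ g ∈ K, g * c * g⁻¹ = y}
  have hY0 : Y0.ncard ≤ q ^ 3 * m := by
    have e1 : Y0 ⊆ ⋃ a ∈ {a | a ∈ A ∧ a ≠ 1}, ((⁅K ⊓ C1[a], K ⊓ C1[a]⁆ : Subgroup G) : Set G) := by
      rintro c ⟨⟨a, ha, ha1, hc⟩, -⟩
      exact Set.mem_biUnion (show a ∈ {a | a ∈ A ∧ a ≠ 1} from ⟨ha, ha1⟩) hc
    refine (Set.ncard_le_ncard e1).trans ((Set.Finite.ncard_biUnion_le (Set.toFinite _) _).trans ?_)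
    rw [finsum_mem_eq_finite_toFinset_sum _ (Set.toFinite _)]
    refine (Finset.sum_le_card_nsmul _ _ m fun a ha => ?_).trans ?_
    · have := (Set.Finite.mem_toFinset _).1 ha
      exact (Nat.card_coe_set_eq _).ge.trans (h a this.1 this.2)
    · rw [smul_eq_mul, ← Set.ncard_eq_toFinset_card, ← h3]
      exact Nat.mul_le_mul_right _ ((Set.ncard_le_ncard (t := A) fun a ha => ha.1).trans (Nat.card_coe_set_eq _).ge)
  have hY : Y.ncard ≤ y := by
    refine (Set.Finite.ncard_biUnion_le (Set.toFinite _) _).trans ?_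
    rw [finsum_mem_eq_finite_toFinset_sum _ (Set.toFinite _)]
    refine (Finset.sum_le_card_nsmul _ _ L fun c hc => ?_).trans ?_
    · rw [ncard_conj]
      exact ((Set.Finite.mem_toFinset _).1 hc).2
    · rw [smul_eq_mul, ← Set.ncard_eq_toFinset_card, hy, ← mul_assoc (q ^ 3)]
      exact Nat.mul_le_mul_right _ hY0
  have hYK : ∀ g ∈ K, ∀ a ∈ Y, g * a * g⁻¹ ∈ Y := fun g hg a ha => by
    obtain ⟨c, hc, k, hk, rfl⟩ := Set.mem_iUnion₂.1 ha
    exact Set.mem_biUnion hc ⟨g * k, mul_mem hg hk, by group⟩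
  have hNK : closure Y ≤ K := (closure_le _).2 fun a ha => by
    obtain ⟨c, ⟨⟨a, -, -, hc⟩, -⟩, k, hk, rfl⟩ := Set.mem_iUnion₂.1 ha
    exact mul_mem (mul_mem hk ((der_sub _).trans inf_le_left hc)) (inv_mem hk)
  have hKN : K ≤ N[closure Y] := le_normalizer_closure_iff.2 fun g hg a ha => subset_closure (hYK g hg a ha)
  refine le_trans (card_le_of_le ?_) (dicman hY (Nat.factorial_pos m) (fun a ha => ?_) fun g hg => hYK g (hNK hg))
  swap
  · obtain ⟨c, ⟨⟨b, hb, hb1, hc⟩, -⟩, k, hk, rfl⟩ := Set.mem_iUnion₂.1 ha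
    rw [conj_pow, orderOf_dvd_iff_pow_eq_one.1 ((Subgroup.orderOf_dvd_natCard _ hc).trans
      (Nat.dvd_factorial Nat.card_pos (h b hb hb1))), mul_one, mul_inv_cancel]
  let S : G → Subgroup G := fun x =>
    { carrier := {z | z ∈ K ∧ ⁅x, z⁆ ∈ closure Y}
      one_mem' := ⟨one_mem _, by simp⟩
      mul_mem' := fun {a b} ha hb => ⟨mul_mem ha.1 hb.1, by
        have : ⁅x, a * b⁆ = ⁅x, a⁆ * (a * ⁅x, b⁆ * a⁻¹) := by simp only [commutatorElement_def]; group
        rw [this]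
        exact mul_mem ha.2 (le_normalizer_iff.1 hKN a ha.1 _ hb.2)⟩
      inv_mem' := fun {a} ha => ⟨inv_mem ha.1, by
        have : ⁅x, a⁻¹⁆ = a⁻¹ * ⁅x, a⁆⁻¹ * a⁻¹⁻¹ := by simp only [commutatorElement_def]; group
        rw [this]
        exact le_normalizer_iff.1 hKN _ (inv_mem ha.1) _ (inv_mem ha.2)⟩ }
  have h1 : ∀ B ≤ A, B.relIndex A ∣ q → ∀ x ∈ K ⊓ C[B], K ≤ S x := fun B hB hi x hx =>
    coprime_abelem_gen_cent hA hn hc fun B' hB' hi' z hz => ⟨hz.1, subset_closure (by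
      obtain ⟨a, ha, ha1⟩ : ∃ a ∈ B ⊓ B', a ≠ 1 := by
        by_contra hcon
        push Not at hcon
        have e1 := card_sup_TI (Or.inl (cents_norm (sub_abelian_cent2 hA.abelian hB hB')))
          (eq_bot_iff.2 fun a ha => hcon a ha)
        have e2 := card_le_of_le (sup_le hB hB')
        have e3 := Nat.mul_le_mul (hB2 B hB hi) (hB2 B' hB' hi')
        rw [← e1, ← pow_add] at e3
        have := (Nat.pow_le_pow_iff_right hq1).1 (e3.trans (e2.trans h3.le))
        omega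
      refine Set.mem_biUnion (x := ⁅x, z⁆) ⟨⟨a, hB ha.1, ha1, commutator_mem_commutator
        ⟨hx.1, cent_le_cent1 ha.1 hx.2⟩ ⟨hz.1, cent_le_cent1 ha.2 hz.2⟩⟩, ?_⟩ ⟨1, one_mem _, by simp⟩
      refine le_trans (relIndex_le_of_le_left (H := C1[x] ⊓ C1[z]) (fun g hg => ?_) (relIndex_pos _ _).ne')
        (relIndex_inf_le.trans (Nat.mul_le_mul (hL B hB hi x hx) (hL B' hB' hi' z hz)))
      have e1 : Commute g x := mem_cent1.1 hg.1
      have e2 : Commute g z := mem_cent1.1 hg.2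
      exact mem_cent1.2 (((e1.mul_right e2).mul_right e1.inv_right).mul_right e2.inv_right))⟩
  refine commutator_le.2 fun z hz => ?_
  have : K ≤ S z := coprime_abelem_gen_cent hA hn hc fun B hB hi x hx => ⟨hx.1, by
    rw [← commutatorElement_inv]
    exact inv_mem (h1 B hB hi x hx hz).2⟩
  exact fun x hx => (this hx).2

end Cfsg.Agent.GS
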